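import Cfsg.Prelude.Def_OddOrderLocal
import Cfsg.Prelude.Def_Local
import Cfsg.Prelude.Def_PLocal
import Cfsg.Prelude.Def_ConjugacyFunctors
/-!
Equation lemmas of the recursive Prelude functions, proved once here.
Import this file and use these (or `rw [Cfsg.puigSeq]` etc. after importing it) so that the
on-demand `eq_def` lemmas live in ONE file of ours and never collide.
-/
namespace CfsgL

theorem puigSeq_zero (G : Type*) [Group G] : Cfsg.puigSeq G 0 = ⊥ := by rw [Cfsg.puigSeq]
theorem puigSeq_succ (G : Type*) [Group G] (n : ℕ) :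
    Cfsg.puigSeq G (n + 1) = Cfsg.puigStep (Cfsg.puigSeq G n) := by rw [Cfsg.puigSeq]

theorem iterCommutator_zero {L : Type*} [Group L] (N G : Subgroup L) :
    Cfsg.iterCommutator N G 0 = N := by rw [Cfsg.iterCommutator]
theorem iterCommutator_succ {L : Type*} [Group L] (N G : Subgroup L) (i : ℕ) :
    Cfsg.iterCommutator N G (i + 1) = ⁅Cfsg.iterCommutator N G i, G⁆ := by rw [Cfsg.iterCommutator]

theorem functorTower_zero {G : Type*} [Group G] (W : Subgroup G → Subgroup G) (S T : Subgroup G) :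
    Cfsg.functorTower W S T 0 = T := by rw [Cfsg.functorTower]
theorem functorTower_succ {G : Type*} [Group G] (W : Subgroup G → Subgroup G) (S T : Subgroup G)
    (i : ℕ) : Cfsg.functorTower W S T (i + 1) =
      W (S ⊓ Subgroup.normalizer ((Cfsg.functorTower W S T i : Subgroup G) : Set G)) := by
  rw [Cfsg.functorTower]

theorem kSeqOdd_zero (P : Type*) [Group P] : Cfsg.kSeqOdd P 0 = ⊤ := by rw [Cfsg.kSeqOdd]
theorem kSeqOdd_succ (P : Type*) [Group P] (n : ℕ) : Cfsg.kSeqOdd P (n + 1) =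
    sSup (Cfsg.kUpperStarFamily (sSup (Cfsg.kLowerStarFamily (Cfsg.kSeqOdd P n)))) := by
  rw [Cfsg.kSeqOdd]

theorem upperPSeries_zero (p : ℕ) (G : Type*) [Group G] :
    (Cfsg.upperPSeries p G 0).1 = ⊥ := by rw [Cfsg.upperPSeries]
theorem upperPSeries_succ_even (p : ℕ) (G : Type*) [Group G] (n : ℕ) (h : Even n) :
    (Cfsg.upperPSeries p G (n + 1)).1 =
      (Cfsg.pPrimeCore p (G ⧸ (Cfsg.upperPSeries p G n).1)).comap (QuotientGroup.mk' _) := by
  rw [Cfsg.upperPSeries, if_pos h]
theorem upperPSeries_succ_odd (p : ℕ) (G : Type*) [Group G] (n : ℕ) (h : ¬ Even n) :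
    (Cfsg.upperPSeries p G (n + 1)).1 =
      (Cfsg.pCore p (G ⧸ (Cfsg.upperPSeries p G n).1)).comap (QuotientGroup.mk' _) := by
  rw [Cfsg.upperPSeries, if_neg h]

end CfsgL
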