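import Cfsg.Agent.L.GolayUniq3
/-!
Restrictions of Golay codewords to a set of points.
-/
set_option autoImplicit false
namespace CfsgL.GU
open Finset

variable {α : Type*} [Fintype α] [DecidableEq α] {C : Finset (Finset α)}

/-- the restrictions of codewords to `F` are the subsets of `F` even against the codewords in `F` -/
theorem IsGolay.exists_restrict (h : IsGolay C) {F A : Finset α} (hA : A ⊆ F)
    (hev : ∀ B ∈ C, B ⊆ F → Even (A ∩ B).card) : ∃ c ∈ C, c ∩ F = A := by
  classical
  have h01 : ∀ a : ZMod 2, a = 0 ∨ a = 1 := by decide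
  let W : Submodule (ZMod 2) (α → ZMod 2) :=
    { carrier := {v | ∃ c ∈ C, ∀ i ∈ F, v i = ind2 c i}
      zero_mem' := ⟨∅, h.empty_mem, by intro i _; simp [ind2]⟩
      add_mem' := by
        rintro v w ⟨c, hc, h1⟩ ⟨d, hd, h2⟩
        refine ⟨symmDiff c d, h.symm c hc d hd, fun i hi => ?_⟩
        rw [ind2_symm, Pi.add_apply, Pi.add_apply, h1 i hi, h2 i hi]
      smul_mem' := by
        rintro a v ⟨c, hc, h1⟩
        rcases h01 a with rfl | rfl
        · exact ⟨∅, h.empty_mem, by intro i _; simp [ind2]⟩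
        · exact ⟨c, hc, by intro i hi; rw [one_smul]; exact h1 i hi⟩ }
  by_contra hno
  have hnot : ind2 A ∉ W := by
    rintro ⟨c, hc, h1⟩
    apply hno
    refine ⟨c, hc, ?_⟩
    ext i
    rw [mem_inter]
    constructor
    · rintro ⟨hi, hiF⟩
      have := h1 i hiF
      by_contra hiA
      simp [ind2, hi, hiA] at this
    · intro hi
      have := h1 i (hA hi)
      refine ⟨?_, hA hi⟩
      by_contra hic
      simp [ind2, hi, hic] at this
  obtain ⟨f, hf, hW⟩ := Submodule.exists_le_ker_of_notMem hnot
  set B := univ.filter (fun i => f (fun j => if i = j then 1 else 0) ≠ 0) with hB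
  have hfs : ∀ s, f (ind2 s) = ((s ∩ B).card : ZMod 2) := by
    intro s
    rw [LinearMap.pi_apply_eq_sum_univ f, ← dot_ind2]
    apply sum_congr rfl
    intro i _
    rw [smul_eq_mul]
    congr 1
    unfold ind2
    rcases h01 (f (fun j => if i = j then 1 else 0)) with h0 | h1
    · rw [h0, if_neg]
      rw [hB, mem_filter]
      exact fun hh => hh.2 h0
    · rw [h1, if_pos]
      rw [hB, mem_filter, h1]
      exact ⟨mem_univ _, one_ne_zero⟩
  have hBF : B ⊆ F := by
    intro i hi
    by_contra hiF
    rw [hB, mem_filter] at hi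
    apply hi.2
    have : (fun j => if i = j then (1 : ZMod 2) else 0) ∈ W := by
      refine ⟨∅, h.empty_mem, fun j hj => ?_⟩
      have : i ≠ j := by rintro rfl; exact hiF hj
      simp [ind2, this]
    exact hW this
  have hBC : B ∈ C := by
    apply h.mem_of_even
    intro s hs
    have h1 : ind2 s ∈ W := ⟨s, hs, fun i _ => rfl⟩
    have h2 : f (ind2 s) = 0 := hW h1
    rw [hfs] at h2
    exact (ZMod.natCast_eq_zero_iff_even).1 h2
  apply hf
  rw [hfs]
  exact (ZMod.natCast_eq_zero_iff_even).2 (hev B hBC hBF)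

/-- at most seven points -/
theorem IsGolay.exists_restrict7 (h : IsGolay C) {F A : Finset α} (hA : A ⊆ F) (hF : F.card ≤ 7) :
    ∃ c ∈ C, c ∩ F = A := by
  apply h.exists_restrict hA
  intro B hB hBF
  have h1 := card_le_card hBF
  rcases h.card_cases hB with h2 | h2 | h2 | h2 | h2 <;> try omega
  rw [card_eq_zero] at h2
  rw [h2]; simp

end CfsgL.GU
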